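import Cfsg.Agent.Lib.EigCount.ProjMain
import Cfsg.Agent.Lib.NormH90.GU

/-! Projective classes: the linear and unitary instances. -/

set_option autoImplicit false
set_option linter.unusedVariables false
set_option linter.unusedSectionVars false

universe u

namespace Cfsg.Agent.Lib.EigCount.Proj

open Polynomial UniqueFactorizationMonoid Module
open scoped _root_.Classical Matrix

section PGL

variable {F : Type u} [Field F] [Fintype F]

/-- The class count for `PGL_n(q)`, `r ∣ q - 1`. -/
theorem card_classes_PGL {q n r : ℕ} (hF : Fintype.card F = q) (hn : 2 ≤ n) (hr : r.Prime) (hrq : r ∣ q - 1) :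
    Nat.card {C : ConjClasses (GL (Fin n) F ⧸ Subgroup.center (GL (Fin n) F)) // ∃ g : GL (Fin n) F ⧸ Subgroup.center (GL (Fin n) F), ConjClasses.mk g = C ∧ orderOf g = r} =
      (Nat.choose (n + r - 1) (r - 1) - r - (if r ∣ n then 1 else 0)) / r + r * (if r ∣ n then 1 else 0) := by
  obtain ⟨p, hp⟩ := CharP.exists F
  have hpp : p.Prime := (CharP.char_is_prime_or_zero F p).resolve_right (fun h0 => by
    subst h0
    exact CharP.char_ne_zero_of_finite F 0 rfl)
  have : Fact p.Prime := ⟨hpp⟩
  have hcardU : Nat.card Fˣ = q - 1 := by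
    rw [Nat.card_eq_fintype_card, Fintype.card_units, hF]
  have hph : PH p (MonoidHom.id (GL (Fin n) F)) (⊤ : Subgroup Fˣ) r :=
    { inj := fun _ _ h => h
      z1 := by
        intro z hz
        rw [Matrix.GeneralLinearGroup.center_eq_range_scalar] at hz
        obtain ⟨c, rfl⟩ := hz
        refine ⟨c, Subgroup.mem_top _, ?_⟩
        ext i j
        simp [Matrix.one_apply, Matrix.scalar_apply, Matrix.diagonal_apply]
      z2 := by
        intro c _
        refine ⟨Matrix.GeneralLinearGroup.scalar (Fin n) c, ?_, ?_⟩
        · rw [Matrix.GeneralLinearGroup.center_eq_range_scalar]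
          exact ⟨c, rfl⟩
        · ext i j
          simp [Matrix.one_apply, Matrix.scalar_apply, Matrix.diagonal_apply]
      conj := fun _ _ h => h
      mono := by
        intro σ s _
        refine ⟨Matrix.GeneralLinearGroup.mkOfDetNeZero (Cfsg.Agent.Lib.Classical.monoMat σ fun i => (s i : F)) ?_, rfl⟩
        rw [Cfsg.Agent.Lib.Classical.monoMat_det]
        apply mul_ne_zero
        · rcases Int.units_eq_one_or (Equiv.Perm.sign σ) with h | h <;> simp [h]
        · rw [Finset.prod_ne_zero_iff]
          intro i _
          exact (s i).ne_zero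
      irr := by
        intro l _ hl b hb
        have hb0 : b ≠ 0 := by
          rintro rfl
          rw [zero_pow hr.ne_zero] at hb
          exact l.ne_zero hb.symm
        apply hl (Units.mk0 b hb0) (Subgroup.mem_top _)
        apply Units.ext
        simpa using hb
      hr := hr
      hrp := by
        rintro rfl
        obtain ⟨m, _, hq⟩ := FiniteField.card F r
        rw [hF] at hq
        have h1 : r ∣ q := by
          rw [hq]
          exact dvd_pow_self r m.ne_zero
        have h2 : 1 ≤ q := by
          rw [hq]
          exact Nat.one_le_pow _ _ hpp.pos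
        have h3 := Nat.dvd_sub h1 hrq
        rw [Nat.sub_sub_self h2] at h3
        exact hpp.one_lt.ne' (Nat.dvd_one.1 h3)
      hrC := by
        rw [Nat.card_congr Subgroup.topEquiv.toEquiv, hcardU]
        exact hrq
      hn := by omega }
  exact hph.count

end PGL

section PGU

variable {K : Type u} [Field K] [Fintype K]

/-- The class count for `PGU_n(q)`, `r ∣ q + 1`. -/
theorem card_classes_PGU {q n r : ℕ} (hK : Fintype.card K = q ^ 2) (hn : 3 ≤ n) (hr : r.Prime) (hr2 : r ≠ 2) (hrq : r ∣ q + 1) :
    Nat.card {C : ConjClasses (↥(Cfsg.GU n K q) ⧸ Subgroup.center ↥(Cfsg.GU n K q)) // ∃ g : ↥(Cfsg.GU n K q) ⧸ Subgroup.center ↥(Cfsg.GU n K q), ConjClasses.mk g = C ∧ orderOf g = r} =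
      (Nat.choose (n + r - 1) (r - 1) - r - (if r ∣ n then 1 else 0)) / r + r * (if r ∣ n then 1 else 0) := by
  obtain ⟨p, hp⟩ := CharP.exists K
  have hpp : p.Prime := (CharP.char_is_prime_or_zero K p).resolve_right (fun h0 => by
    subst h0
    exact CharP.char_ne_zero_of_finite K 0 rfl)
  have : Fact p.Prime := ⟨hpp⟩
  have hq2 : 2 ≤ q := Cfsg.Agent.Lib.Classical.two_le_q hK
  have hcardU : Nat.card Kˣ = (q - 1) * (q + 1) := by
    rw [Nat.card_eq_fintype_card, Fintype.card_units, hK]
    zify [show 1 ≤ q by omega, show 1 ≤ q ^ 2 from Nat.one_le_pow _ _ (by omega)]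
    ring
  have hmem : ∀ c : Kˣ, c ∈ rootsOfUnity (q + 1) K ↔ (c : K) ^ (q + 1) = 1 := by
    intro c
    rw [mem_rootsOfUnity]
    constructor
    · intro h
      have := congrArg Units.val h
      simpa using this
    · intro h
      apply Units.ext
      simpa using h
  have hph : PH p (Cfsg.GU n K q).subtype (rootsOfUnity (q + 1) K) r :=
    { inj := Subtype.val_injective
      z1 := by
        intro z hz
        obtain ⟨a, ha⟩ := Cfsg.Agent.Lib.Classical.gu_center_scalar hK (by omega) ⟨z, hz⟩
        have hi : Fin n := ⟨0, by omega⟩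
        have h1 := z.2 (Pi.single hi 1) (Pi.single hi 1)
        change Cfsg.hermForm n K q (((z.1 : GL (Fin n) K) : Matrix (Fin n) (Fin n) K) *ᵥ _) (((z.1 : GL (Fin n) K) : Matrix (Fin n) (Fin n) K) *ᵥ _) = Cfsg.hermForm n K q _ _ at h1
        have ha' : ((z.1 : GL (Fin n) K) : Matrix (Fin n) (Fin n) K) = Matrix.diagonal (fun _ => a) := ha
        rw [ha', Matrix.mulVec_single] at h1
        have h2 : a * a ^ q = 1 := by
          simp only [Cfsg.hermForm] at h1
          rw [Finset.sum_eq_single hi (fun j _ hj => by simp [hj]) (by simp)] at h1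
          rw [Finset.sum_eq_single hi (fun j _ hj => by simp [hj]) (by simp)] at h1
          have h3 : (q : ℕ) ≠ 0 := by omega
          simpa [Matrix.col_diagonal, Pi.single_apply] using h1
        have ha1 : a ^ (q + 1) = 1 := by
          rw [pow_succ, mul_comm]
          exact h2
        have ha0 : a ≠ 0 := by
          rintro rfl
          rw [zero_pow (by omega)] at ha1
          exact zero_ne_one ha1
        refine ⟨Units.mk0 a ha0, (hmem _).2 ha1, ?_⟩
        change ((z.1 : GL (Fin n) K) : Matrix (Fin n) (Fin n) K) = _
        rw [ha']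
        ext i j
        simp [Matrix.one_apply, Matrix.diagonal_apply]
      z2 := by
        intro c hc
        refine ⟨(Cfsg.Agent.Lib.Classical.scalGU (n := n) (c : K) ((hmem c).1 hc)).1, (Cfsg.Agent.Lib.Classical.scalGU (n := n) (c : K) ((hmem c).1 hc)).2, ?_⟩
        change Cfsg.Agent.Lib.Classical.monoMat 1 (fun _ => (c : K)) = _
        rw [monoMat_one]
        ext i j
        simp [Matrix.one_apply, Matrix.diagonal_apply]
      conj := fun a b h => (Cfsg.Agent.Lib.NormH90.conj_GU_iff hK a b).2 h
      mono := by
        intro σ s hs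
        exact ⟨Cfsg.Agent.Lib.Classical.monoGU σ _ (fun i => (hmem _).1 (hs i)), rfl⟩
      irr := by
        intro l hl hne b hb
        have hb0 : b ≠ 0 := by
          rintro rfl
          rw [zero_pow hr.ne_zero] at hb
          exact l.ne_zero hb.symm
        obtain ⟨c, hc⟩ : ∃ c : Kˣ, c = Units.mk0 b hb0 := ⟨_, rfl⟩
        have hcl : c ^ r = l := by
          apply Units.ext
          rw [hc]
          simpa using hb
        have hl1 : l ^ (q + 1) = 1 := by
          rw [mem_rootsOfUnity] at hl
          exact hl
        have ht1 : (c ^ (q + 1)) ^ r = 1 := by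
          rw [← pow_mul, mul_comm, pow_mul, hcl, hl1]
        have ht2 : (c ^ (q + 1)) ^ (q - 1) = 1 := by
          rw [← pow_mul, mul_comm, ← hcardU]
          exact pow_card_eq_one'
        have ht3 : c ^ (q + 1) = 1 := by
          have : Fact r.Prime := ⟨hr⟩
          by_contra hne1
          have h1 := orderOf_eq_prime ht1 hne1
          have h2 : r ∣ q - 1 := by
            rw [← h1]
            exact orderOf_dvd_of_pow_eq_one ht2
          have h3 := Nat.dvd_sub hrq h2
          rw [show q + 1 - (q - 1) = 2 by omega] at h3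
          exact hr2 ((Nat.prime_dvd_prime_iff_eq hr Nat.prime_two).1 h3)
        refine hne c ?_ hcl
        rw [mem_rootsOfUnity]
        exact ht3
      hr := hr
      hrp := by
        rintro rfl
        obtain ⟨m, _, hq⟩ := FiniteField.card K r
        rw [hK] at hq
        have h1 : r ∣ q := by
          have h2 : r ∣ q ^ 2 := by
            rw [hq]
            exact dvd_pow_self r m.ne_zero
          exact hpp.dvd_of_dvd_pow h2
        have h3 := (Nat.dvd_add_right h1).1 hrq
        exact hpp.one_lt.ne' (Nat.dvd_one.1 h3)
      hrC := by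
        have h1 := card_mu (K := K) (r := q + 1) (by rw [hcardU]; exact dvd_mul_left _ _)
        rw [← Nat.card_eq_fintype_card] at h1
        have h2 : Nat.card ↥(rootsOfUnity (q + 1) K) = q + 1 := h1
        rw [h2]
        exact hrq
      hn := by omega }
  exact hph.count

end PGU

end Cfsg.Agent.Lib.EigCount.Proj
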