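import Cfsg.Agent.Lib.EigCount.ProjMat

/-! Projective classes: the counting framework. -/

set_option autoImplicit false
set_option linter.unusedVariables false
set_option linter.unusedSectionVars false

universe u

namespace Cfsg.Agent.Lib.EigCount.Proj

open Polynomial UniqueFactorizationMonoid Module
open scoped _root_.Classical Matrix

/-- A variant of the class-counting lemma, with invariance required for the relevant elements only. -/
theorem card_classes' {G T : Type*} [Group G] (φ : G → T) (P : G → Prop) (S : T → Prop)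
    (hφ : ∀ a b, IsConj a b → P a → φ a = φ b)
    (hP : ∀ a b, IsConj a b → P a → P b)
    (hS : ∀ g, P g → S (φ g)) (hR : ∀ t, S t → ∃ g, P g ∧ φ g = t)
    (hI : ∀ a b, P a → P b → φ a = φ b → IsConj a b) :
    Nat.card {c : ConjClasses G // ∃ g, ConjClasses.mk g = c ∧ P g} = Nat.card {t // S t} := by
  classical
  let Φ : {c : ConjClasses G // ∃ g, ConjClasses.mk g = c ∧ P g} → {t // S t} :=
    fun c => ⟨φ c.2.choose, hS _ c.2.choose_spec.2⟩
  apply Nat.card_congr (Equiv.ofBijective Φ ⟨?_, ?_⟩)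
  · rintro c d h
    have h1 : φ c.2.choose = φ d.2.choose := congrArg Subtype.val h
    have h2 := hI _ _ c.2.choose_spec.2 d.2.choose_spec.2 h1
    apply Subtype.ext
    rw [← c.2.choose_spec.1, ← d.2.choose_spec.1]
    exact ConjClasses.mk_eq_mk_iff_isConj.2 h2
  · rintro ⟨t, ht⟩
    obtain ⟨g, hg, rfl⟩ := hR t ht
    refine ⟨⟨ConjClasses.mk g, g, rfl, hg⟩, ?_⟩
    apply Subtype.ext
    have hex : ∃ g', ConjClasses.mk g' = ConjClasses.mk g ∧ P g' := ⟨g, rfl, hg⟩
    have h1 : IsConj hex.choose g := ConjClasses.mk_eq_mk_iff_isConj.1 hex.choose_spec.1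
    exact hφ _ _ h1 hex.choose_spec.2

variable {K : Type u} [Field K] [Fintype K] {p r n : ℕ} [Fact p.Prime] [CharP K p]
variable {G : Type*} [Group G]

/-- The hypotheses of the framework. -/
structure PH (p : ℕ) (ι : G →* GL (Fin n) K) (C : Subgroup Kˣ) (r : ℕ) : Prop where
  inj : Function.Injective ι
  z1 : ∀ z ∈ Subgroup.center G, ∃ c ∈ C, ((ι z : GL (Fin n) K) : Matrix (Fin n) (Fin n) K) = ((c : Kˣ) : K) • 1
  z2 : ∀ c ∈ C, ∃ z ∈ Subgroup.center G, ((ι z : GL (Fin n) K) : Matrix (Fin n) (Fin n) K) = ((c : Kˣ) : K) • 1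
  conj : ∀ a b, IsConj (ι a) (ι b) → IsConj a b
  mono : ∀ (σ : Equiv.Perm (Fin n)) (s : Fin n → Kˣ), (∀ i, s i ∈ C) →
    ∃ g, ((ι g : GL (Fin n) K) : Matrix (Fin n) (Fin n) K) = Cfsg.Agent.Lib.Classical.monoMat σ (fun i => (s i : K))
  irr : ∀ l ∈ C, (∀ c ∈ C, c ^ r ≠ l) → ∀ b : K, b ^ r ≠ (l : K)
  hr : r.Prime
  hrp : r ≠ p
  hrC : r ∣ Nat.card C
  hn : 1 ≤ n

section setup

variable {ι : G →* GL (Fin n) K} {C : Subgroup Kˣ}

/-- The matrix of an element. -/
noncomputable def mt (ι : G →* GL (Fin n) K) : G →* Matrix (Fin n) (Fin n) K := (Units.coeHom _).comp ι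

theorem mt_apply (g : G) : mt ι g = ((ι g : GL (Fin n) K) : Matrix (Fin n) (Fin n) K) := rfl

variable (h : PH p ι C r)
include h

theorem PH.mt_inj : Function.Injective (mt ι) := fun a b hab => h.inj (Units.ext hab)

theorem PH.scal_inj {a b : K} (hab : a • (1 : Matrix (Fin n) (Fin n) K) = b • 1) : a = b := by
  have h0 : Fin n := ⟨0, h.hn⟩
  have := congrFun (congrFun hab h0) h0
  simpa using this

theorem PH.cardMu : Fintype.card (Mu K r) = r :=
  card_mu (h.hrC.trans (Subgroup.card_subgroup_dvd_card C))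

theorem PH.mu_le {ζ : Kˣ} (hζ : ζ ^ r = 1) : ζ ∈ C := by
  have : Fact r.Prime := ⟨h.hr⟩
  obtain ⟨c, hc⟩ := exists_prime_orderOf_dvd_card' r h.hrC
  have h1 : orderOf (c : Kˣ) = r := by
    rw [Subgroup.orderOf_coe, hc]
  have h2 : Subgroup.zpowers (c : Kˣ) ≤ rootsOfUnity r K := by
    rw [Subgroup.zpowers_le, mem_rootsOfUnity, ← h1, pow_orderOf_eq_one]
  have h3 : Subgroup.zpowers (c : Kˣ) = rootsOfUnity r K := by
    refine Subgroup.eq_of_le_of_card_ge h2 ?_
    rw [Nat.card_zpowers, h1]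
    exact le_of_eq (by
      have := h.cardMu
      rw [← Nat.card_eq_fintype_card] at this
      exact this)
  have h4 : ζ ∈ Subgroup.zpowers (c : Kˣ) := by
    rw [h3, mem_rootsOfUnity]
    exact hζ
  exact (Subgroup.zpowers_le.2 c.2) h4

/-- Lifts differ by scalars. -/
theorem PH.lift_scalar {g g' : G} (hg : (QuotientGroup.mk g : G ⧸ Subgroup.center G) = QuotientGroup.mk g') :
    ∃ c ∈ C, mt ι g' = ((c : Kˣ) : K) • mt ι g := by
  have h1 : g⁻¹ * g' ∈ Subgroup.center G := QuotientGroup.eq.1 hg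
  obtain ⟨c, hc, hz⟩ := h.z1 _ h1
  refine ⟨c, hc, ?_⟩
  have h2 : g' = g * (g⁻¹ * g') := by group
  rw [h2, map_mul, mt_apply (g⁻¹ * g'), hz, Matrix.mul_smul, mul_one]

theorem PH.scalar_lift (g : G) {c : Kˣ} (hc : c ∈ C) :
    ∃ g', (QuotientGroup.mk g' : G ⧸ Subgroup.center G) = QuotientGroup.mk g ∧ mt ι g' = (c : K) • mt ι g := by
  obtain ⟨z, hz, hzc⟩ := h.z2 c hc
  refine ⟨g * z, ?_, ?_⟩
  · rw [QuotientGroup.eq]
    simpa using Subgroup.inv_mem _ hz
  · rw [map_mul, mt_apply z, hzc, Matrix.mul_smul, mul_one]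

theorem PH.mem_center_of_scalar {g : G} {c : Kˣ} (hc : c ∈ C) (hg : mt ι g = (c : K) • 1) : g ∈ Subgroup.center G := by
  obtain ⟨z, hz, hzc⟩ := h.z2 c hc
  have : g = z := h.mt_inj (by rw [hg, mt_apply z, hzc])
  rw [this]
  exact hz

/-- Lifting a conjugacy. -/
theorem PH.conj_lift {x y : G ⧸ Subgroup.center G} (hxy : IsConj x y) (g : G) (hg : (QuotientGroup.mk g : G ⧸ Subgroup.center G) = x) :
    ∃ g', (QuotientGroup.mk g' : G ⧸ Subgroup.center G) = y ∧ IsConj g g' := by
  obtain ⟨c, hc⟩ := isConj_iff.1 hxy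
  obtain ⟨c', rfl⟩ := QuotientGroup.mk_surjective c
  refine ⟨c' * g * c'⁻¹, ?_, isConj_iff.2 ⟨c', rfl⟩⟩
  rw [← hc, ← hg]
  rfl

theorem PH.charpoly_conj {a b : G} (hab : IsConj a b) : (mt ι a).charpoly = (mt ι b).charpoly :=
  charpoly_of_isConj (MonoidHom.map_isConj (mt ι) hab)

/-- The tuple of an element. -/
noncomputable def tg (ι : G →* GL (Fin n) K) (r : ℕ) (g : G) : Mu K r → ℕ := tupM (r := r) (mt ι g).charpoly

theorem PH.sum_tg {g : G} (hg : mt ι g ^ r = 1) : ∑ ζ, tg ι r g ζ = n := by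
  have := sum_tupM (K := K) h.cardMu hg
  simpa [tg] using this

/-- Diagonal matrices with given values have a given tuple. -/
theorem PH.pow_diag (d : Fin n → Mu K r) : (Matrix.diagonal fun i => vl (d i)) ^ r = 1 := by
  rw [Matrix.diagonal_pow]
  have : ((fun i => vl (d i)) ^ r) = fun _ => 1 := by
    funext i
    exact vl_pow _
  rw [this]
  exact Matrix.diagonal_one

/-- The tuple of a scalar multiple. -/
theorem PH.tg_smul {g g' : G} (hg : mt ι g ^ r = 1) (s : Mu K r) (hs : mt ι g' = vl s • mt ι g) :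
    tg ι r g' = fun x => tg ι r g (s⁻¹ * x) := by
  obtain ⟨d, hd⟩ := exists_diag (tg ι r g) (h.sum_tg hg)
  have h1 : (mt ι g).charpoly = (Matrix.diagonal fun i => vl (d i)).charpoly := by
    rw [charpoly_diag, hd, tg]
    exact charpoly_eq_pol h.cardMu hg
  obtain ⟨c, hc⟩ := isConj_of_charpoly (p := p) h.hr h.hrp hg (h.pow_diag d) h1
  have h2 : (mt ι g').charpoly = (Matrix.diagonal fun i => vl (s * d i)).charpoly := by
    have h3 : (Matrix.diagonal fun i => vl (s * d i)) = vl s • Matrix.diagonal fun i => vl (d i) := by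
      ext i j
      by_cases hij : i = j
      · subst hij
        simp [vl_mul]
      · simp [hij]
    rw [hs, h3]
    apply charpoly_of_isConj
    refine ⟨c, ?_⟩
    change (c : Matrix (Fin n) (Fin n) K) * (vl s • mt ι g) = (vl s • Matrix.diagonal fun i => vl (d i)) * c
    rw [mul_smul_comm, smul_mul_assoc, hc.eq]
  funext x
  rw [tg, h2, charpoly_diag, tupM_pol, fib_mul, hd]

/-- The scalar tuple. -/
noncomputable def e₀ (K : Type u) [Field K] [Fintype K] (r n : ℕ) : Tp K r n :=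
  ⟨fun x => if x = 1 then n else 0, by simp⟩

/-- The tuple as an element of `Tp`. -/
noncomputable def tpT (ι : G →* GL (Fin n) K) (r : ℕ) (g : G) : Tp K r n :=
  if h : ∑ ζ, tg ι r g ζ = n then ⟨tg ι r g, h⟩ else e₀ K r n

theorem PH.tpT_val {g : G} (hg : mt ι g ^ r = 1) : (tpT ι r g).1 = tg ι r g := by
  rw [tpT, dif_pos (h.sum_tg hg)]

/-- The scalar part of the `r`-th power. -/
noncomputable def lam (ι : G →* GL (Fin n) K) (C : Subgroup Kˣ) (r : ℕ) (g : G) : ↥C :=
  if h : ∃ c ∈ C, mt ι (g ^ r) = ((c : Kˣ) : K) • 1 then ⟨h.choose, h.choose_spec.1⟩ else 1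

theorem PH.lam_spec {g : G} {c : Kˣ} (hc : c ∈ C) (hg : mt ι (g ^ r) = (c : K) • 1) : lam ι C r g = ⟨c, hc⟩ := by
  have hex : ∃ c ∈ C, mt ι (g ^ r) = ((c : Kˣ) : K) • 1 := ⟨c, hc, hg⟩
  rw [lam, dif_pos hex]
  apply Subtype.ext
  apply Units.ext
  apply h.scal_inj
  exact hex.choose_spec.2.symm.trans hg

omit h in
theorem orb_eq' {a b : Tp K r n} (s : Mu K r) (hs : a = s • b) : (Quotient.mk'' a : MulAction.orbitRel.Quotient (Mu K r) (Tp K r n)) = Quotient.mk'' b :=
  Quotient.sound' ⟨s, hs.symm⟩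

/-- The target of the invariant. -/
abbrev Orb (K : Type u) [Field K] [Fintype K] (r n : ℕ) := MulAction.orbitRel.Quotient (Mu K r) (Tp K r n)

/-- The classes of scalars modulo `r`-th powers. -/
abbrev Qt (C : Subgroup Kˣ) (r : ℕ) := ↥C ⧸ (powMonoidHom r : ↥C →* ↥C).range

omit h in
theorem orb_eq {a b : Tp K r n} (s : Mu K r) (hs : a = s • b) : (Quotient.mk'' a : Orb K r n) = Quotient.mk'' b := orb_eq' s hs

omit h in
theorem orb_eq_iff {a b : Tp K r n} (hs : (Quotient.mk'' a : Orb K r n) = Quotient.mk'' b) : ∃ s : Mu K r, s • b = a := by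
  have := Quotient.exact' hs
  exact this

/-- The invariant. -/
noncomputable def phi (ι : G →* GL (Fin n) K) (C : Subgroup Kˣ) (r : ℕ) (x : G ⧸ Subgroup.center G) : Orb K r n ⊕ Qt C r :=
  if h : ∃ g : G, QuotientGroup.mk g = x ∧ mt ι g ^ r = 1 then
    Sum.inl (Quotient.mk'' (tpT ι r h.choose))
  else Sum.inr (QuotientGroup.mk (lam ι C r x.out))

theorem PH.phi_inl {g : G} (hg : mt ι g ^ r = 1) :
    phi ι C r (QuotientGroup.mk g) = Sum.inl (Quotient.mk'' (tpT ι r g)) := by
  have hex : ∃ g' : G, QuotientGroup.mk g' = (QuotientGroup.mk g : G ⧸ Subgroup.center G) ∧ mt ι g' ^ r = 1 := ⟨g, rfl, hg⟩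
  rw [phi, dif_pos hex]
  congr 1
  obtain ⟨h1, h2⟩ := hex.choose_spec
  obtain ⟨c, hc, hc'⟩ := h.lift_scalar h1.symm
  have hne : ((c : Kˣ) : K) ^ r = 1 := by
    rw [hc', _root_.smul_pow, hg, ] at h2
    exact h.scal_inj (by rwa [one_smul])
  have hc1 : c ^ r = 1 := Units.ext (by simpa using hne)
  obtain ⟨s, hs⟩ : ∃ s : Mu K r, (s : Kˣ) = c := ⟨⟨c, by rw [mem_rootsOfUnity]; exact hc1⟩, rfl⟩
  have h3 := h.tg_smul (g' := hex.choose) hg s (by rw [hc', ← hs]; rfl)
  refine orb_eq s ?_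
  apply Subtype.ext
  rw [h.tpT_val h2]
  funext x
  rw [h3]
  change _ = (tpT ι r g).1 (s⁻¹ * x)
  rw [h.tpT_val hg]

theorem PH.not_lift_of_lam {g : G} {l : Kˣ} (hl : l ∈ C) (hg : mt ι (g ^ r) = (l : K) • 1) (hne : ∀ c ∈ C, c ^ r ≠ l) :
    ¬ ∃ g' : G, (QuotientGroup.mk g' : G ⧸ Subgroup.center G) = QuotientGroup.mk g ∧ mt ι g' ^ r = 1 := by
  rintro ⟨g', h1, h2⟩
  obtain ⟨c, hc, hc'⟩ := h.lift_scalar h1.symm
  rw [hc', _root_.smul_pow, ← map_pow, hg, smul_smul] at h2
  have h3 : ((c : Kˣ) : K) ^ r * (l : K) = 1 := h.scal_inj (by rwa [one_smul])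
  apply hne c⁻¹ (C.inv_mem hc)
  apply Units.ext
  have h4 : ((c : K)) ≠ 0 := c.ne_zero
  simp only [Units.val_pow_eq_pow_val, Units.val_inv_eq_inv_val, inv_pow]
  field_simp
  linear_combination -h3

theorem PH.phi_inr {g : G} {l : Kˣ} (hl : l ∈ C) (hg : mt ι (g ^ r) = (l : K) • 1)
    (hnl : ¬ ∃ g' : G, (QuotientGroup.mk g' : G ⧸ Subgroup.center G) = QuotientGroup.mk g ∧ mt ι g' ^ r = 1) :
    phi ι C r (QuotientGroup.mk g) = Sum.inr (QuotientGroup.mk ⟨l, hl⟩) := by
  rw [phi, dif_neg hnl]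
  congr 1
  have h1 : (QuotientGroup.mk g : G ⧸ Subgroup.center G) = QuotientGroup.mk (Quotient.out (QuotientGroup.mk g : G ⧸ Subgroup.center G)) := by
    exact (QuotientGroup.out_eq' _).symm
  obtain ⟨c, hc, hc'⟩ := h.lift_scalar h1
  set b := Quotient.out (QuotientGroup.mk g : G ⧸ Subgroup.center G) with hb
  have h2 : mt ι (b ^ r) = ((c ^ r * l : Kˣ) : K) • 1 := by
    rw [map_pow, hc', _root_.smul_pow, ← map_pow, hg, smul_smul]
    simp
  rw [h.lam_spec (C.mul_mem (C.pow_mem hc r) hl) h2]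
  rw [eq_comm, QuotientGroup.eq]
  refine ⟨⟨c, hc⟩, ?_⟩
  apply Subtype.ext
  simp only [powMonoidHom_apply]
  simp [mul_comm]

/-- The order condition in terms of lifts. -/
theorem PH.order_mk {g : G} (h1 : g ^ r ∈ Subgroup.center G) (h2 : g ∉ Subgroup.center G) :
    orderOf (QuotientGroup.mk g : G ⧸ Subgroup.center G) = r := by
  have : Fact r.Prime := ⟨h.hr⟩
  refine orderOf_eq_prime ?_ ?_
  · rw [← QuotientGroup.mk_pow, QuotientGroup.eq_one_iff]
    exact h1
  · rw [Ne, QuotientGroup.eq_one_iff]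
    exact h2

theorem PH.of_order {g : G} (hx : orderOf (QuotientGroup.mk g : G ⧸ Subgroup.center G) = r) :
    g ^ r ∈ Subgroup.center G ∧ g ∉ Subgroup.center G := by
  constructor
  · rw [← QuotientGroup.eq_one_iff, QuotientGroup.mk_pow, ← hx, pow_orderOf_eq_one]
  · intro h1
    have h2 : (QuotientGroup.mk g : G ⧸ Subgroup.center G) = 1 := (QuotientGroup.eq_one_iff _).2 h1
    rw [h2, orderOf_one] at hx
    exact h.hr.one_lt.ne hx

/-- Elements with a lift of `r`-th power one: the nonscalar condition. -/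
theorem PH.not_scalar_orbit {g : G} (hg : mt ι g ^ r = 1) (hnc : g ∉ Subgroup.center G) :
    (Quotient.mk'' (tpT ι r g) : Orb K r n) ≠ Quotient.mk'' (e₀ K r n) := by
  intro heq
  obtain ⟨s, hs⟩ := orb_eq_iff heq
  have h1 : tg ι r g = fun x => if s⁻¹ * x = 1 then n else 0 := by
    rw [← h.tpT_val hg, ← hs]
    rfl
  -- the constant diagonal
  let d : Fin n → Mu K r := fun _ => s
  have h2 : fib d = tg ι r g := by
    rw [h1]
    funext x
    simp only [fib, d]
    by_cases hx : s = x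
    · subst hx
      simp
    · have h3 : ¬ s⁻¹ * x = 1 := by
        intro h3
        exact hx (inv_mul_eq_one.1 h3)
      simp [hx, h3]
  have h3 : (mt ι g).charpoly = (Matrix.diagonal fun i => vl (d i)).charpoly := by
    rw [charpoly_diag, h2, tg]
    exact charpoly_eq_pol h.cardMu hg
  obtain ⟨c, hc⟩ := isConj_of_charpoly (p := p) h.hr h.hrp hg (h.pow_diag d) h3
  have h4 : (Matrix.diagonal fun i => vl (d i)) = vl s • (1 : Matrix (Fin n) (Fin n) K) := by
    ext i j
    by_cases hij : i = j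
    · subst hij
      simp [d]
    · simp [hij]
  rw [h4] at hc
  have h5 : mt ι g = vl s • 1 := by
    have h6 : (c : Matrix (Fin n) (Fin n) K) * mt ι g = (vl s • 1) * c := hc.eq
    rw [smul_mul_assoc, one_mul] at h6
    calc mt ι g = (c⁻¹ : (Matrix (Fin n) (Fin n) K)ˣ).val * ((c : Matrix (Fin n) (Fin n) K) * mt ι g) := by
          rw [← mul_assoc, Units.inv_mul, one_mul]
      _ = vl s • 1 := by
          rw [h6, mul_smul_comm, Units.inv_mul]
  apply hnc
  refine h.mem_center_of_scalar (h.mu_le (ζ := (s : Kˣ)) ?_) h5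
  have := s.2
  rwa [mem_rootsOfUnity] at this

theorem PH.pow_one_of_lift {g : G} (hg : mt ι g ^ r = 1) : g ^ r = 1 := h.mt_inj (by rw [map_pow, hg, map_one])

theorem PH.conj_one {g g' : G} (hgg : IsConj g g') (hg : mt ι g ^ r = 1) : mt ι g' ^ r = 1 := by
  have h1 := h.pow_one_of_lift hg
  have h2 : IsConj (g ^ r) (g' ^ r) := hgg.pow r
  rw [h1, isConj_one_right] at h2
  rw [← map_pow, h2, map_one]

theorem PH.conj_central {g g' : G} (hgg : IsConj g g') (hg : g ^ r ∈ Subgroup.center G) : g' ^ r = g ^ r := by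
  have h2 : IsConj (g ^ r) (g' ^ r) := hgg.pow r
  obtain ⟨c, hc⟩ := isConj_iff.1 h2
  rw [← hc, Subgroup.mem_center_iff.1 hg c, mul_assoc, mul_inv_cancel, mul_one]

theorem PH.tpT_conj {g g' : G} (hgg : IsConj g g') : tpT ι r g = tpT ι r g' := by
  have h1 : tg ι r g = tg ι r g' := by
    rw [tg, tg, h.charpoly_conj hgg]
  rw [tpT, tpT]
  simp only [h1]

/-- No lift with `r`-th power one: the scalar is not an `r`-th power. -/
theorem PH.lam_not_power {g : G} {l : Kˣ} (hg : mt ι (g ^ r) = (l : K) • 1)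
    (hnl : ¬ ∃ g' : G, (QuotientGroup.mk g' : G ⧸ Subgroup.center G) = QuotientGroup.mk g ∧ mt ι g' ^ r = 1) :
    ∀ c ∈ C, c ^ r ≠ l := by
  intro c hc hcl
  apply hnl
  obtain ⟨g', h1, h2⟩ := h.scalar_lift g (C.inv_mem hc)
  refine ⟨g', h1, ?_⟩
  rw [h2, _root_.smul_pow, ← map_pow, hg, smul_smul, ← hcl]
  have h4 : ((c : K)) ≠ 0 := c.ne_zero
  have h5 : (((c⁻¹ : Kˣ) : K)) ^ r * (((c ^ r : Kˣ)) : K) = 1 := by
    simp only [Units.val_pow_eq_pow_val, Units.val_inv_eq_inv_val, inv_pow]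
    field_simp
  rw [h5, one_smul]

theorem PH.charpoly_lam {g : G} {l : Kˣ} (hl : l ∈ C) (hg : mt ι (g ^ r) = (l : K) • 1) (hne : ∀ c ∈ C, c ^ r ≠ l) :
    r ∣ n ∧ (mt ι g).charpoly = (X ^ r - Polynomial.C (l : K)) ^ (n / r) := by
  refine charpoly_of_pow (X_pow_sub_C_irreducible_of_prime h.hr (h.irr l hl hne)) h.hr.ne_zero ?_
  rw [← map_pow, hg]

omit h in
theorem monoMat_one (s : Fin n → K) : Cfsg.Agent.Lib.Classical.monoMat 1 s = Matrix.diagonal s := by
  ext i j
  rw [Cfsg.Agent.Lib.Classical.monoMat_apply]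
  by_cases hij : i = j
  · subst hij
    simp
  · simp [hij]

/-- The bijection of classes with the invariants. -/
theorem PH.classes :
    Nat.card {c : ConjClasses (G ⧸ Subgroup.center G) // ∃ x : G ⧸ Subgroup.center G, ConjClasses.mk x = c ∧ orderOf x = r} =
      Nat.card {t : Orb K r n ⊕ Qt C r // Sum.elim (fun o => o ≠ Quotient.mk'' (e₀ K r n)) (fun c => c ≠ 1 ∧ r ∣ n) t} := by
  refine card_classes' (phi ι C r) (fun x => orderOf x = r) _ ?_ ?_ ?_ ?_ ?_
  · -- invariance
    intro x y hxy hx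
    by_cases hP : ∃ g : G, QuotientGroup.mk g = x ∧ mt ι g ^ r = 1
    · obtain ⟨g, rfl, hg⟩ := hP
      obtain ⟨g', rfl, hgg⟩ := h.conj_lift hxy g rfl
      rw [h.phi_inl hg, h.phi_inl (h.conj_one hgg hg), h.tpT_conj hgg]
    · obtain ⟨g, rfl⟩ := QuotientGroup.mk_surjective x
      obtain ⟨hg1, hg2⟩ := h.of_order hx
      obtain ⟨l, hl, hgl⟩ := h.z1 _ hg1
      obtain ⟨g', rfl, hgg⟩ := h.conj_lift hxy g rfl
      have hg'l : mt ι (g' ^ r) = (l : K) • 1 := by
        rw [h.conj_central hgg hg1]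
        exact hgl
      have hP' : ¬ ∃ g'' : G, (QuotientGroup.mk g'' : G ⧸ Subgroup.center G) = QuotientGroup.mk g' ∧ mt ι g'' ^ r = 1 := by
        rintro ⟨g'', h1, h2⟩
        apply hP
        obtain ⟨g₃, h3, h4⟩ := h.conj_lift hxy.symm g'' h1
        exact ⟨g₃, h3, h.conj_one h4 h2⟩
      rw [h.phi_inr hl hgl hP, h.phi_inr hl hg'l hP']
  · intro x y hxy hx
    rw [← Cfsg.Agent.Lib.Known.GLConj.orderOf_isConj hxy]
    exact hx
  · -- the invariant lies in the set
    intro x hx
    by_cases hP : ∃ g : G, QuotientGroup.mk g = x ∧ mt ι g ^ r = 1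
    · obtain ⟨g, rfl, hg⟩ := hP
      rw [h.phi_inl hg]
      exact h.not_scalar_orbit hg (h.of_order hx).2
    · obtain ⟨g, rfl⟩ := QuotientGroup.mk_surjective x
      obtain ⟨hg1, hg2⟩ := h.of_order hx
      obtain ⟨l, hl, hgl⟩ := h.z1 _ hg1
      rw [h.phi_inr hl hgl hP]
      have hne := h.lam_not_power hgl hP
      refine ⟨?_, (h.charpoly_lam hl hgl hne).1⟩
      rw [Ne, QuotientGroup.eq_one_iff]
      rintro ⟨c, hc⟩
      exact hne c.1 c.2 (congrArg Subtype.val hc)
  · -- surjectivity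
    rintro (o | c) ht
    · induction o using Quotient.inductionOn' with
      | h a =>
        obtain ⟨d, hd⟩ := exists_diag (n := n) a.1 a.2
        obtain ⟨g, hg⟩ := h.mono 1 (fun i => (d i : Kˣ)) (fun i => h.mu_le (by
          have := (d i).2
          rwa [mem_rootsOfUnity] at this))
        have hg' : mt ι g = Matrix.diagonal fun i => vl (d i) := by
          rw [mt_apply (ι := ι) g, hg, monoMat_one]
          rfl
        have hpow : mt ι g ^ r = 1 := by
          rw [hg']
          exact h.pow_diag d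
        have htp : tpT ι r g = a := by
          apply Subtype.ext
          rw [h.tpT_val hpow, tg, hg', charpoly_diag, tupM_pol, hd]
        refine ⟨QuotientGroup.mk g, ?_, ?_⟩
        · refine h.order_mk ?_ ?_
          · rw [h.pow_one_of_lift hpow]
            exact Subgroup.one_mem _
          · intro hc
            obtain ⟨c, hc1, hc2⟩ := h.z1 _ hc
            have h0 : Fin n := ⟨0, h.hn⟩
            apply ht
            refine orb_eq (d h0) ?_
            apply Subtype.ext
            funext x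
            change a.1 x = if (d h0)⁻¹ * x = 1 then n else 0
            rw [← hd]
            have hall : ∀ i, d i = d h0 := by
              intro i
              have e1 : ∀ j, vl (d j) = ((c : Kˣ) : K) := by
                intro j
                have := congrFun (congrFun hc2 j) j
                rw [← mt_apply, hg'] at this
                simpa using this
              exact vl_inj ((e1 i).trans (e1 h0).symm)
            by_cases hx : d h0 = x
            · subst hx
              simp [fib, hall]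
            · have h3 : ¬ (d h0)⁻¹ * x = 1 := fun h3 => hx (inv_mul_eq_one.1 h3)
              simp [fib, hall, hx, h3]
        · rw [h.phi_inl hpow, htp]
    · obtain ⟨hc1, hdvd⟩ := ht
      obtain ⟨⟨l, hl⟩, rfl⟩ := QuotientGroup.mk_surjective c
      obtain ⟨σ, s, hs1, hs2⟩ := exists_block (K := K) h.hr hdvd l
      obtain ⟨g, hg⟩ := h.mono σ s (fun i => by
        rcases hs1 i with h1 | h1 <;> rw [h1]
        · exact C.one_mem
        · exact hl)
      have hgr : mt ι (g ^ r) = (l : K) • 1 := by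
        rw [map_pow, mt_apply (ι := ι) g, hg, hs2]
      have hne : ∀ c ∈ C, c ^ r ≠ l := by
        intro c hc hcl
        apply hc1
        rw [QuotientGroup.eq_one_iff]
        exact ⟨⟨c, hc⟩, Subtype.ext hcl⟩
      have hP := h.not_lift_of_lam hl hgr hne
      refine ⟨QuotientGroup.mk g, ?_, h.phi_inr hl hgr hP⟩
      refine h.order_mk (h.mem_center_of_scalar hl hgr) ?_
      intro hc
      obtain ⟨c, hc2, hc3⟩ := h.z1 _ hc
      apply hne c hc2
      apply Units.ext
      apply h.scal_inj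
      rw [← hgr, map_pow, mt_apply (ι := ι) g, hc3, _root_.smul_pow, one_pow, Units.val_pow_eq_pow_val]
  · -- injectivity
    intro x y hx hy hxy
    by_cases hP : ∃ g : G, QuotientGroup.mk g = x ∧ mt ι g ^ r = 1
    · obtain ⟨g, rfl, hg⟩ := hP
      by_cases hP' : ∃ g' : G, QuotientGroup.mk g' = y ∧ mt ι g' ^ r = 1
      · obtain ⟨g', rfl, hg'⟩ := hP'
        rw [h.phi_inl hg, h.phi_inl hg'] at hxy
        obtain ⟨s, hs⟩ := orb_eq_iff (Sum.inl.inj hxy)
        have hsC : (s : Kˣ) ∈ C := h.mu_le (by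
          have := s.2
          rwa [mem_rootsOfUnity] at this)
        obtain ⟨h₂, h1, h2⟩ := h.scalar_lift g' hsC
        have h3 := h.tg_smul hg' s h2
        have h4 : tg ι r g = tg ι r h₂ := by
          rw [← h.tpT_val hg, ← hs, h3]
          funext z
          change (tpT ι r g').1 (s⁻¹ * z) = _
          rw [h.tpT_val hg']
        have hpow : mt ι h₂ ^ r = 1 := by
          rw [h2, _root_.smul_pow, hg']
          have := vl_pow s
          change vl s ^ r • 1 = 1
          rw [this, one_smul]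
        have h5 : (mt ι g).charpoly = (mt ι h₂).charpoly := by
          rw [charpoly_eq_pol h.cardMu hg, charpoly_eq_pol h.cardMu hpow]
          exact congrArg pol h4
        have h6 := Cfsg.Agent.Lib.Known.GLConj.isConj_GL p (ι g) (ι h₂)
          (cop_of_scalar h.hr h.hrp h.hr.pos _ one_ne_zero (by rw [one_smul]; exact hg))
          (cop_of_scalar h.hr h.hrp h.hr.pos _ one_ne_zero (by rw [one_smul]; exact hpow)) h5
        have h7 := h.conj _ _ h6
        rw [← h1]
        exact MonoidHom.map_isConj (QuotientGroup.mk' (Subgroup.center G)) h7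
      · exfalso
        obtain ⟨b, rfl⟩ := QuotientGroup.mk_surjective y
        obtain ⟨hg1, hg2⟩ := h.of_order hy
        obtain ⟨l, hl, hgl⟩ := h.z1 _ hg1
        rw [h.phi_inl hg, h.phi_inr hl hgl hP'] at hxy
        exact Sum.inl_ne_inr hxy
    · obtain ⟨a, rfl⟩ := QuotientGroup.mk_surjective x
      obtain ⟨ha1, ha2⟩ := h.of_order hx
      obtain ⟨la, hla, hal⟩ := h.z1 _ ha1
      by_cases hP' : ∃ g' : G, QuotientGroup.mk g' = y ∧ mt ι g' ^ r = 1
      · exfalso
        obtain ⟨g', rfl, hg'⟩ := hP'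
        rw [h.phi_inr hla hal hP, h.phi_inl hg'] at hxy
        exact Sum.inr_ne_inl hxy
      · obtain ⟨b, rfl⟩ := QuotientGroup.mk_surjective y
        obtain ⟨hb1, hb2⟩ := h.of_order hy
        obtain ⟨lb, hlb, hbl⟩ := h.z1 _ hb1
        rw [h.phi_inr hla hal hP, h.phi_inr hlb hbl hP'] at hxy
        have h1 := QuotientGroup.eq.1 (Sum.inr.inj hxy)
        obtain ⟨⟨c, hc⟩, hc'⟩ := h1
        have hc2 : lb = la * c ^ r := by
          have h2 := congrArg Subtype.val hc'
          simp only [powMonoidHom_apply, Subgroup.coe_pow, Subgroup.coe_mul, InvMemClass.coe_inv] at h2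
          rw [h2]
          group
        obtain ⟨b', h3, h4⟩ := h.scalar_lift b (C.inv_mem hc)
        have hbl' : mt ι (b ^ r) = (lb : K) • 1 := hbl
        have hb'r : mt ι (b' ^ r) = (la : K) • 1 := by
          rw [map_pow, h4, _root_.smul_pow, ← map_pow, hbl', smul_smul, hc2]
          congr 1
          have h0 : ((c : K)) ≠ 0 := c.ne_zero
          simp only [Units.val_mul, Units.val_pow_eq_pow_val, Units.val_inv_eq_inv_val, inv_pow]
          field_simp
        have hne := h.lam_not_power hal hP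
        have hb'P : ∀ c' ∈ C, c' ^ r ≠ la := hne
        obtain ⟨_, e1⟩ := h.charpoly_lam hla hal hne
        obtain ⟨_, e2⟩ := h.charpoly_lam hla hb'r hne
        have h6 := Cfsg.Agent.Lib.Known.GLConj.isConj_GL p (ι a) (ι b')
          (cop_of_scalar h.hr h.hrp h.hr.pos _ la.ne_zero (by rw [← mt_apply, ← map_pow]; exact hal))
          (cop_of_scalar h.hr h.hrp h.hr.pos _ la.ne_zero (by rw [← mt_apply, ← map_pow]; exact hb'r)) (e1.trans e2.symm)
        have h7 := h.conj _ _ h6
        rw [← h3]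
        exact MonoidHom.map_isConj (QuotientGroup.mk' (Subgroup.center G)) h7

omit h in
theorem card_ne {α : Type*} [Finite α] (a : α) : Nat.card {x // x ≠ a} = Nat.card α - 1 := by
  have := Fintype.ofFinite α
  simp only [Nat.card_eq_fintype_card]
  rw [Fintype.card_subtype_compl, Fintype.card_subtype_eq]

/-- The final count. -/
theorem PH.count :
    Nat.card {c : ConjClasses (G ⧸ Subgroup.center G) // ∃ x : G ⧸ Subgroup.center G, ConjClasses.mk x = c ∧ orderOf x = r} =
      (Nat.choose (n + r - 1) (r - 1) - r - (if r ∣ n then 1 else 0)) / r + r * (if r ∣ n then 1 else 0) := by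
  rw [h.classes]
  have hcard := h.cardMu
  have hr := h.hr
  have := finite_Tp (K := K) (r := r) (n := n) (by rw [hcard]; exact hr.pos)
  have hfO : Finite (Orb K r n) := Quotient.finite _
  have hq : Nat.card (Qt C r) = r := by
    have h1 := IsCyclic.index_powMonoidHom_range (G := ↥C) r
    rw [Subgroup.index] at h1
    rw [h1]
    exact Nat.gcd_eq_right h.hrC
  have hfQ : Finite (Qt C r) := Nat.finite_of_card_ne_zero (by rw [hq]; exact hr.ne_zero)
  rw [Nat.card_congr (Equiv.subtypeSum (p := Sum.elim (fun o => o ≠ Quotient.mk'' (e₀ K r n)) (fun c => c ≠ 1 ∧ r ∣ n)))]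
  have hfs : Finite {c : Qt C r // c ≠ 1 ∧ r ∣ n} := inferInstance
  have hfo : Finite {o : Orb K r n // o ≠ Quotient.mk'' (e₀ K r n)} := inferInstance
  rw [Nat.card_sum]
  change Nat.card {o : Orb K r n // o ≠ Quotient.mk'' (e₀ K r n)} + Nat.card {c : Qt C r // c ≠ 1 ∧ r ∣ n} = _
  rw [card_ne]
  have h3 : Nat.card {c : Qt C r // c ≠ 1 ∧ r ∣ n} = (r - 1) * (if r ∣ n then 1 else 0) := by
    split_ifs with hd
    · have h7 := card_ne (1 : Qt C r)
      rw [hq] at h7
      rw [mul_one, ← h7]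
      refine Nat.card_congr (Equiv.subtypeEquivRight fun c => ?_)
      simp [hd]
    · rw [mul_zero]
      have : IsEmpty {c : Qt C r // c ≠ 1 ∧ r ∣ n} := ⟨fun c => hd c.2.2⟩
      exact Nat.card_of_isEmpty
  rw [h3]
  refine final_arith hr.two_le ?_ ?_ (burnside_count hr hcard)
  · have h4 : Nat.choose r (r - 1) ≤ Nat.choose (n + r - 1) (r - 1) := Nat.choose_le_choose _ (by
      have := h.hn
      omega)
    have h5 : Nat.choose r (r - 1) = r := by
      rw [Nat.choose_symm hr.one_le, Nat.choose_one_right]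
    omega
  · split_ifs
    · exact Or.inr rfl
    · exact Or.inl rfl

end setup

end Cfsg.Agent.Lib.EigCount.Proj
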