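import Cfsg.Agent.Lib.EigCount.ProjTup
import Cfsg.Agent.Lib.EigCount.Frame
import Cfsg.Agent.Lib.Classical.GUCenter

/-! Projective classes: matrices with a scalar power. -/

set_option autoImplicit false
set_option linter.unusedVariables false
set_option linter.unusedSectionVars false

universe u

namespace Cfsg.Agent.Lib.EigCount.Proj

open Polynomial UniqueFactorizationMonoid Module
open scoped _root_.Classical Matrix

variable {K : Type u} [Field K] [Fintype K] {p r n : ℕ} [Fact p.Prime] [CharP K p]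

theorem cop_of_scalar (hr : r.Prime) (hrp : r ≠ p) (hr0 : 0 < r) (A : GL (Fin n) K) {l : K} (hl : l ≠ 0) (hA : A.val ^ r = l • 1) : (orderOf A).Coprime p := by
  have hp : p.Prime := Fact.out
  have h1 : A ^ (r * (Fintype.card K - 1)) = 1 := by
    apply Units.ext
    rw [Units.val_pow_eq_pow_val, pow_mul, hA, _root_.smul_pow, one_pow, FiniteField.pow_card_sub_one_eq_one l hl, one_smul, Units.val_one]
  have h2 := orderOf_dvd_of_pow_eq_one h1
  refine Nat.Coprime.coprime_dvd_left h2 ?_
  refine Nat.Coprime.mul_left ((Nat.coprime_primes hr hp).2 hrp) ?_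
  obtain ⟨m, _, hq⟩ := FiniteField.card K p
  have hq0 : 1 ≤ p ^ (m : ℕ) := Nat.one_le_pow _ _ hp.pos
  rw [hq]
  rw [Nat.coprime_comm, hp.coprime_iff_not_dvd]
  intro hd
  have h3 : p ∣ p ^ (m : ℕ) := dvd_pow_self p m.ne_zero
  have h4 : p ∣ 1 := by
    have := (Nat.dvd_sub h3 hd)
    rwa [Nat.sub_sub_self hq0] at this
  exact hp.one_lt.ne' (Nat.dvd_one.1 h4)

theorem charpoly_of_pow {A : Matrix (Fin n) (Fin n) K} {l : K} (hirr : Irreducible (X ^ r - C l : K[X])) (hr0 : r ≠ 0) (hA : A ^ r = l • 1) :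
    r ∣ n ∧ A.charpoly = (X ^ r - C l) ^ (n / r) := by
  have hm : (X ^ r - C l : K[X]).Monic := monic_X_pow_sub_C l hr0
  have h1 : aeval A (X ^ r - C l : K[X]) = 0 := by
    simp [hA, Algebra.algebraMap_eq_smul_one]
  have h2 : ∀ π ∈ normalizedFactors A.charpoly, π = X ^ r - C l := by
    intro π hπ
    have hm' := mi_of_mem hπ
    have h3 := dvd_of_aeval_eq_zero hm'.1 (dvd_of_mem_normalizedFactors hπ) h1
    exact eq_of_monic_of_associated hm'.2 hm (hm'.1.associated_of_dvd hirr h3)
  have h3 := Multiset.eq_replicate_card.2 h2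
  have h4 : A.charpoly = (X ^ r - C l) ^ (normalizedFactors A.charpoly).card := by
    conv_lhs => rw [← prod_nf (Matrix.charpoly_monic A), h3]
    rw [Multiset.prod_replicate]
  have h5 : n = r * (normalizedFactors A.charpoly).card := by
    have h6 := Matrix.charpoly_natDegree_eq_dim A
    rw [h4, hm.natDegree_pow, natDegree_X_pow_sub_C, Fintype.card_fin] at h6
    rw [mul_comm]
    exact h6.symm
  refine ⟨⟨_, h5⟩, ?_⟩
  have h6 : n / r = (normalizedFactors A.charpoly).card := by
    exact Nat.div_eq_of_eq_mul_right (Nat.pos_of_ne_zero hr0) h5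
  rw [h6]
  exact h4

/-- A monomial matrix whose `r`-th power is a given scalar. -/
theorem exists_block (hr : r.Prime) (h : r ∣ n) (l : Kˣ) :
    ∃ (σ : Equiv.Perm (Fin n)) (s : Fin n → Kˣ), (∀ i, s i = 1 ∨ s i = l) ∧
      (Cfsg.Agent.Lib.Classical.monoMat σ (fun i => (s i : K))) ^ r = (l : K) • 1 := by
  obtain ⟨k, rfl⟩ := h
  have : NeZero r := ⟨hr.ne_zero⟩
  have hc : Fintype.card (ZMod r × Fin k) = Fintype.card (Fin (r * k)) := by
    simp [ZMod.card]
  obtain ⟨e⟩ := Fintype.card_eq.1 hc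
  let σ₀ : Equiv.Perm (ZMod r × Fin k) := (Equiv.addRight (1 : ZMod r)).prodCongr (Equiv.refl _)
  let σ : Equiv.Perm (Fin (r * k)) := e.symm.trans (σ₀.trans e)
  let s : Fin (r * k) → Kˣ := fun i => if (e.symm i).1 = 0 then l else 1
  have hσ : ∀ (u : ℕ) i, e.symm ((σ ^ u) i) = ((e.symm i).1 + u, (e.symm i).2) := by
    intro u
    induction u with
    | zero =>
      intro i
      simp
    | succ u ih =>
      intro i
      rw [pow_succ', Equiv.Perm.mul_apply]
      change e.symm (e (σ₀ (e.symm ((σ ^ u) i)))) = _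
      rw [Equiv.symm_apply_apply, ih]
      change ((e.symm i).1 + u + 1, (e.symm i).2) = _
      push_cast
      rw [add_assoc]
  have hσr : σ ^ r = 1 := by
    ext i
    have h1 := hσ r i
    rw [ZMod.natCast_self, add_zero] at h1
    have h2 : (σ ^ r) i = i := e.symm.injective (h1.trans (Prod.ext rfl rfl))
    rw [h2]
    rfl
  obtain ⟨M, hM⟩ : ∃ M, M = Cfsg.Agent.Lib.Classical.monoMat σ (fun i => (s i : K)) := ⟨_, rfl⟩
  have hpow : ∀ (t : ℕ) (x : Fin (r * k) → K) (i : Fin (r * k)), (M ^ t *ᵥ x) i = (∏ u ∈ Finset.range t, (s ((σ ^ (u + 1)) i) : K)) * x ((σ ^ t) i) := by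
    intro t
    induction t with
    | zero =>
      intro x i
      simp
    | succ t ih =>
      intro x i
      rw [pow_succ', ← Matrix.mulVec_mulVec, hM, Cfsg.Agent.Lib.Classical.monoMat_mulVec, ← hM, ih, Finset.prod_range_succ']
      have h3 : ∀ u : ℕ, (σ ^ (u + 1)) (σ i) = (σ ^ (u + 1 + 1)) i := by
        intro u
        rw [pow_succ _ (u + 1), Equiv.Perm.mul_apply]
      have h4 : (σ ^ t) (σ i) = (σ ^ (t + 1)) i := by
        rw [pow_succ _ t, Equiv.Perm.mul_apply]
      simp only [h3, h4]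
      rw [zero_add, pow_one]
      ring
  have hprod : ∀ i, ∏ u ∈ Finset.range r, (s ((σ ^ (u + 1)) i) : K) = (l : K) := by
    intro i
    obtain ⟨z, hz⟩ : ∃ z, z = (e.symm i).1 := ⟨_, rfl⟩
    have h5 : ∀ u : ℕ, (s ((σ ^ (u + 1)) i) : K) = if z + ((u + 1 : ℕ) : ZMod r) = 0 then (l : K) else 1 := by
      intro u
      simp only [s]
      rw [hσ (u + 1) i, ← hz]
      split_ifs <;> rfl
    simp only [h5]
    have hz1 : ZMod.val z < r := ZMod.val_lt z
    rw [Finset.prod_eq_single (r - 1 - ZMod.val z)]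
    · rw [if_pos]
      have h6 : r - 1 - ZMod.val z + 1 = r - ZMod.val z := by omega
      rw [h6, Nat.cast_sub hz1.le, ZMod.natCast_self, ZMod.natCast_zmod_val]
      ring
    · intro u hu hne
      rw [if_neg]
      intro h7
      apply hne
      have h8 : ((u + 1 : ℕ) : ZMod r) = ((r - ZMod.val z : ℕ) : ZMod r) := by
        rw [Nat.cast_sub hz1.le, ZMod.natCast_self, ZMod.natCast_zmod_val]
        linear_combination h7
      have h9 := (ZMod.natCast_eq_natCast_iff' _ _ _).1 h8
      rw [Finset.mem_range] at hu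
      by_cases hb : u + 1 = r
      · have h10 : r - ZMod.val z < r ∨ ZMod.val z = 0 := by omega
        rcases h10 with h10 | h10
        · rw [hb, Nat.mod_self, Nat.mod_eq_of_lt h10] at h9
          omega
        · omega
      · rw [Nat.mod_eq_of_lt (by omega : u + 1 < r)] at h9
        by_cases hz0 : ZMod.val z = 0
        · rw [hz0, Nat.sub_zero, Nat.mod_self] at h9
          omega
        · rw [Nat.mod_eq_of_lt (by omega : r - ZMod.val z < r)] at h9
          omega
    · intro h6
      exfalso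
      apply h6
      rw [Finset.mem_range]
      omega
  refine ⟨σ, s, ?_, ?_⟩
  · intro i
    simp only [s]
    split_ifs
    · exact Or.inr rfl
    · exact Or.inl rfl
  · rw [← hM]
    apply Matrix.mulVec_injective
    funext x
    funext i
    rw [hpow, hprod, hσr]
    simp [Matrix.smul_mulVec]

end Cfsg.Agent.Lib.EigCount.Proj
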