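import Cfsg.Agent.Lib.EigCount.OrthBase

/-! Projective classes: tuples of multiplicities of `r`-th roots of unity. -/

set_option autoImplicit false
set_option linter.unusedVariables false
set_option linter.unusedSectionVars false

universe u

namespace Cfsg.Agent.Lib.EigCount.Proj

open Polynomial UniqueFactorizationMonoid Module
open scoped _root_.Classical Matrix

variable {K : Type u} [Field K] [Fintype K] {r n : ℕ}

/-- The group of `r`-th roots of unity. -/
abbrev Mu (K : Type u) [Field K] (r : ℕ) := ↥(rootsOfUnity r K)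

noncomputable instance instFintypeMu : Fintype (Mu K r) := Fintype.ofFinite _

/-- The value in the field. -/
def vl (ζ : Mu K r) : K := ((ζ : Kˣ) : K)

theorem vl_inj : Function.Injective (vl : Mu K r → K) := fun a b h => Subtype.ext (Units.ext h)

theorem vl_mul (a b : Mu K r) : vl (a * b) = vl a * vl b := rfl

theorem vl_one : vl (1 : Mu K r) = 1 := rfl

theorem vl_pow (a : Mu K r) : vl a ^ r = 1 := by
  have := a.2
  rw [mem_rootsOfUnity] at this
  have h := congrArg Units.val this
  simpa [vl] using h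

theorem vl_ne_zero (a : Mu K r) : vl a ≠ 0 := Units.ne_zero _

/-- `|μ_r| = r` for `r` dividing `|K^×|`. -/
theorem card_mu (hr : r ∣ Nat.card Kˣ) : Fintype.card (Mu K r) = r := by
  have h1 := IsCyclic.card_powMonoidHom_ker (G := Kˣ) r
  rw [← Nat.card_eq_fintype_card]
  have h2 : rootsOfUnity r K = (powMonoidHom r : Kˣ →* Kˣ).ker := by
    ext x
    simp [mem_rootsOfUnity, MonoidHom.mem_ker]
  change Nat.card ↥(rootsOfUnity r K) = r
  rw [h2, h1]
  exact Nat.gcd_eq_right hr

theorem mi_lin (ζ : K) : MI (X - C ζ : K[X]) := ⟨irreducible_X_sub_C ζ, monic_X_sub_C ζ⟩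

theorem lin_inj {a b : K} (h : (X - C a : K[X]) = X - C b) : a = b := by
  have h1 := congrArg (fun P : K[X] => P.coeff 0) h
  simpa using h1

/-- The multiset of linear factors attached to a tuple. -/
noncomputable def mkM (a : Mu K r → ℕ) : Multiset K[X] := ∑ ζ : Mu K r, Multiset.replicate (a ζ) (X - C (vl ζ))

theorem mem_mkM {a : Mu K r → ℕ} {π : K[X]} (h : π ∈ mkM a) : ∃ ζ : Mu K r, π = X - C (vl ζ) := by
  rw [mkM, Multiset.mem_sum] at h
  obtain ⟨ζ, _, hζ⟩ := h
  exact ⟨ζ, Multiset.eq_of_mem_replicate hζ⟩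

theorem count_mkM (a : Mu K r → ℕ) (ζ : Mu K r) : (mkM a).count (X - C (vl ζ)) = a ζ := by
  rw [mkM, Multiset.count_sum']
  rw [Finset.sum_eq_single ζ]
  · rw [Multiset.count_replicate_self]
  · intro b _ hb
    rw [Multiset.count_replicate, if_neg]
    intro h
    exact hb (vl_inj (lin_inj h))
  · simp

/-- The polynomial attached to a tuple. -/
noncomputable def pol (a : Mu K r → ℕ) : K[X] := (mkM a).prod

theorem pol_eq (a : Mu K r → ℕ) : pol a = ∏ ζ : Mu K r, (X - C (vl ζ)) ^ a ζ := by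
  rw [pol, mkM, Multiset.prod_sum]
  refine Finset.prod_congr rfl fun f _ => ?_
  rw [Multiset.prod_replicate]

theorem pol_monic (a : Mu K r → ℕ) : (pol a).Monic := by
  rw [pol_eq]
  exact monic_prod_of_monic _ _ fun ζ _ => (monic_X_sub_C _).pow _

theorem natDegree_pol (a : Mu K r → ℕ) : (pol a).natDegree = ∑ ζ, a ζ := by
  rw [pol_eq, natDegree_prod_of_monic _ _ fun ζ _ => (monic_X_sub_C _).pow _]
  refine Finset.sum_congr rfl fun ζ _ => ?_
  rw [natDegree_pow, natDegree_X_sub_C, mul_one]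

theorem nf_pol (a : Mu K r → ℕ) : normalizedFactors (pol a) = mkM a := by
  rw [pol]
  refine nf_of_prod fun π hπ => ?_
  obtain ⟨ζ, rfl⟩ := mem_mkM hπ
  exact mi_lin _

/-- The tuple of a polynomial. -/
noncomputable def tupM (χ : K[X]) : Mu K r → ℕ := fun ζ => (normalizedFactors χ).count (X - C (vl ζ))

theorem tupM_pol (a : Mu K r → ℕ) : tupM (pol a) = a := by
  funext ζ
  rw [tupM, nf_pol, count_mkM]

theorem X_pow_prod (hcard : Fintype.card (Mu K r) = r) : (X ^ r - 1 : K[X]) = ∏ ζ : Mu K r, (X - C (vl ζ)) := by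
  have hr0 : r ≠ 0 := by
    rintro rfl
    obtain ⟨e⟩ : Nonempty (Mu K 0) := ⟨1⟩
    have := Fintype.card_pos (α := Mu K 0)
    omega
  have hm : (X ^ r - 1 : K[X]).Monic := by
    have := monic_X_pow_sub_C (1 : K) hr0
    simpa using this
  have hm2 : (∏ ζ : Mu K r, (X - C (vl ζ)) : K[X]).Monic := monic_prod_of_monic _ _ fun ζ _ => monic_X_sub_C _
  refine eq_of_monic_of_dvd_of_natDegree_le hm2 hm ?_ ?_
  · refine Finset.prod_dvd_of_coprime ?_ ?_
    · intro a _ b _ hab
      exact pairwise_coprime_X_sub_C (vl_inj (K := K) (r := r)) hab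
    · intro ζ _
      rw [dvd_iff_isRoot]
      simp [vl_pow]
  · have h1 : (X ^ r - 1 : K[X]).natDegree = r := by
      have := natDegree_X_pow_sub_C (n := r) (r := (1 : K))
      simpa using this
    rw [h1, natDegree_prod_of_monic _ _ fun ζ _ => monic_X_sub_C _]
    simp [hcard]

variable {ι : Type*} [Fintype ι] [DecidableEq ι]

theorem factor_lin (hcard : Fintype.card (Mu K r) = r) {A : Matrix ι ι K} (hA : A ^ r = 1) {π : K[X]}
    (hπ : π ∈ normalizedFactors A.charpoly) : ∃ ζ : Mu K r, π = X - C (vl ζ) := by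
  have hm := mi_of_mem hπ
  have h1 : aeval A (X ^ r - 1 : K[X]) = 0 := by simp [hA]
  have h2 := dvd_of_aeval_eq_zero hm.1 (dvd_of_mem_normalizedFactors hπ) h1
  rw [X_pow_prod hcard] at h2
  obtain ⟨ζ, _, hζ⟩ := (Prime.dvd_finsetProd_iff hm.1.prime _).1 h2
  refine ⟨ζ, ?_⟩
  exact eq_of_monic_of_associated hm.2 (monic_X_sub_C _) (hm.1.associated_of_dvd (mi_lin _).1 hζ)

theorem charpoly_eq_pol (hcard : Fintype.card (Mu K r) = r) {A : Matrix ι ι K} (hA : A ^ r = 1) :
    A.charpoly = pol (tupM (r := r) A.charpoly) := by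
  have h1 : normalizedFactors A.charpoly = mkM (tupM (r := r) A.charpoly) := by
    ext π
    by_cases hπ : ∃ ζ : Mu K r, π = X - C (vl ζ)
    · obtain ⟨ζ, rfl⟩ := hπ
      rw [count_mkM]
      rfl
    · rw [Multiset.count_eq_zero_of_notMem, Multiset.count_eq_zero_of_notMem]
      · exact fun h => hπ (mem_mkM h)
      · exact fun h => hπ (factor_lin hcard hA h)
  rw [pol, ← h1, prod_nf (Matrix.charpoly_monic A)]

theorem sum_tupM (hcard : Fintype.card (Mu K r) = r) {A : Matrix ι ι K} (hA : A ^ r = 1) :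
    ∑ ζ, tupM (r := r) A.charpoly ζ = Fintype.card ι := by
  rw [← natDegree_pol, ← charpoly_eq_pol hcard hA, Matrix.charpoly_natDegree_eq_dim]

/-- The fibre counts of a diagonal. -/
noncomputable def fib (d : ι → Mu K r) : Mu K r → ℕ := fun ζ => (Finset.univ.filter fun i => d i = ζ).card

theorem charpoly_diag (d : ι → Mu K r) :
    (Matrix.diagonal fun i => vl (d i)).charpoly = pol (fib d) := by
  rw [Matrix.charpoly_diagonal, pol_eq]
  rw [← Finset.prod_fiberwise Finset.univ d]
  refine Finset.prod_congr rfl fun ζ _ => ?_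
  rw [Finset.prod_congr rfl (g := fun _ => (X - C (vl ζ) : K[X])), Finset.prod_const]
  · rfl
  · intro i hi
    rw [(Finset.mem_filter.1 hi).2]

/-- Every tuple with the right sum is the fibre count of a diagonal. -/
theorem exists_diag (a : Mu K r → ℕ) (ha : ∑ ζ, a ζ = n) : ∃ d : Fin n → Mu K r, fib d = a := by
  have hc : Fintype.card (Σ ζ : Mu K r, Fin (a ζ)) = Fintype.card (Fin n) := by
    simp [ha]
  obtain ⟨e⟩ := Fintype.card_eq.1 hc
  refine ⟨fun i => (e.symm i).1, ?_⟩
  funext ζ
  rw [fib]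
  have e1 : (Finset.univ.filter fun i : Fin n => (e.symm i).1 = ζ).card = Fintype.card {i : Fin n // (e.symm i).1 = ζ} :=
    (Fintype.card_subtype _).symm
  rw [e1]
  have e2 : {i : Fin n // (e.symm i).1 = ζ} ≃ {x : Σ ζ : Mu K r, Fin (a ζ) // x.1 = ζ} :=
    e.symm.subtypeEquiv fun i => Iff.rfl
  rw [Fintype.card_congr (e2.trans (Equiv.sigmaSubtype ζ)), Fintype.card_fin]

/-- Tuples with given sum. -/
abbrev Tp (K : Type u) [Field K] [Fintype K] (r n : ℕ) := {a : Mu K r → ℕ // ∑ ζ, a ζ = n}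

/-- The rotation action. -/
noncomputable instance instMulActionTp : MulAction (Mu K r) (Tp K r n) where
  smul s a := ⟨fun x => a.1 (s⁻¹ * x), (Equiv.sum_comp (Equiv.mulLeft s⁻¹) a.1).trans a.2⟩
  one_smul a := Subtype.ext (funext fun x => by
    change a.1 (1⁻¹ * x) = a.1 x
    rw [inv_one, one_mul])
  mul_smul s t a := Subtype.ext (funext fun x => by
    change a.1 ((s * t)⁻¹ * x) = a.1 (t⁻¹ * (s⁻¹ * x))
    rw [mul_inv_rev, mul_assoc])

theorem smul_val (s : Mu K r) (a : Tp K r n) (x : Mu K r) : (s • a).1 x = a.1 (s⁻¹ * x) := rfl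

theorem fib_mul (s : Mu K r) (d : ι → Mu K r) (x : Mu K r) : fib (fun i => s * d i) x = fib d (s⁻¹ * x) := by
  simp only [fib]
  congr 1
  ext i
  simp only [Finset.mem_filter, Finset.mem_univ, true_and]
  rw [eq_inv_mul_iff_mul_eq]

theorem finite_Tp (hκ : 0 < Fintype.card (Mu K r)) : Finite (Tp K r n) := by
  have h1 := card_sum_eq (Mu K r) hκ n
  refine Nat.finite_of_card_ne_zero ?_
  rw [h1]
  exact (Nat.choose_pos (by omega)).ne'

theorem card_Tp (hr : r.Prime) (hcard : Fintype.card (Mu K r) = r) : Nat.card (Tp K r n) = Nat.choose (n + r - 1) (r - 1) := by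
  have h1 := card_sum_eq (Mu K r) (by rw [hcard]; exact hr.pos) n
  rw [hcard] at h1
  exact h1

/-- The fixed points of a nontrivial rotation. -/
theorem card_fixedBy (hr : r.Prime) (hcard : Fintype.card (Mu K r) = r) {ζ : Mu K r} (hζ : ζ ≠ 1) :
    Nat.card (MulAction.fixedBy (Tp K r n) ζ) = if r ∣ n then 1 else 0 := by
  have : Fact r.Prime := ⟨hr⟩
  have hcst : ∀ a : Tp K r n, ζ • a = a → ∀ x, a.1 x = a.1 1 := by
    intro a ha x
    have h1 : ∀ y, a.1 (ζ⁻¹ * y) = a.1 y := fun y => by
      have := congrFun (congrArg Subtype.val ha) y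
      exact this
    have h2 : ∀ k : ℕ, ∀ y, a.1 (ζ⁻¹ ^ k * y) = a.1 y := by
      intro k
      induction k with
      | zero => intro y; simp
      | succ k ih =>
        intro y
        rw [pow_succ', mul_assoc, h1, ih]
    have h3 : ζ⁻¹ ≠ 1 := inv_ne_one.2 hζ
    have h4 : x ∈ Subgroup.zpowers ζ⁻¹ := mem_zpowers_of_prime_card (p := r) (by rw [Nat.card_eq_fintype_card, hcard]) h3
    obtain ⟨k, hk⟩ := (mem_powers_iff_mem_zpowers).2 h4
    have h5 := h2 k 1
    rw [mul_one] at h5
    change ζ⁻¹ ^ k = x at hk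
    rw [hk] at h5
    exact h5
  split_ifs with h
  · obtain ⟨k, rfl⟩ := h
    rw [Nat.card_eq_one_iff_unique]
    refine ⟨⟨fun a b => ?_⟩, ?_⟩
    · apply Subtype.ext
      apply Subtype.ext
      funext x
      have hsum : ∀ c : Tp K r (r * k), ζ • c = c → c.1 x = k := by
        intro c hc
        have h1 := c.2
        rw [Finset.sum_congr rfl fun y _ => hcst c hc y, Finset.sum_const, Finset.card_univ, hcard, smul_eq_mul] at h1
        rw [hcst c hc x]
        exact Nat.eq_of_mul_eq_mul_left hr.pos h1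
      rw [hsum _ a.2, hsum _ b.2]
    · refine ⟨⟨⟨fun _ => k, by simp [hcard]⟩, ?_⟩⟩
      apply Subtype.ext
      rfl
  · have : IsEmpty (MulAction.fixedBy (Tp K r n) ζ) := by
      constructor
      rintro ⟨a, ha⟩
      apply h
      have h1 := a.2
      rw [Finset.sum_congr rfl fun y _ => hcst a ha y, Finset.sum_const, Finset.card_univ, hcard, smul_eq_mul] at h1
      exact ⟨_, h1.symm⟩
    exact Nat.card_of_isEmpty

/-- Burnside for the rotation action. -/
theorem burnside_count (hr : r.Prime) (hcard : Fintype.card (Mu K r) = r) :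
    Nat.card (MulAction.orbitRel.Quotient (Mu K r) (Tp K r n)) * r =
      Nat.choose (n + r - 1) (r - 1) + (r - 1) * (if r ∣ n then 1 else 0) := by
  have := finite_Tp (K := K) (r := r) (n := n) (by rw [hcard]; exact hr.pos)
  have : ∀ g : Mu K r, Fintype (MulAction.fixedBy (Tp K r n) g) := fun g => Fintype.ofFinite _
  have : Fintype (MulAction.orbitRel.Quotient (Mu K r) (Tp K r n)) := Fintype.ofFinite _
  have h1 := MulAction.sum_card_fixedBy_eq_card_orbits_mul_card_group (Mu K r) (Tp K r n)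
  rw [hcard] at h1
  rw [Nat.card_eq_fintype_card, ← h1]
  have h2 : ∀ g : Mu K r, Fintype.card (MulAction.fixedBy (Tp K r n) g) =
      if g = 1 then Nat.choose (n + r - 1) (r - 1) else if r ∣ n then 1 else 0 := by
    intro g
    rw [← Nat.card_eq_fintype_card]
    split_ifs with h h'
    · subst h
      rw [← card_Tp (K := K) (n := n) hr hcard]
      refine Nat.card_congr (Equiv.subtypeUnivEquiv fun a => ?_)
      exact one_smul _ a
    · rw [card_fixedBy hr hcard h, if_pos h']
    · rw [card_fixedBy hr hcard h, if_neg h']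
  rw [Finset.sum_congr rfl fun g _ => h2 g]
  rw [← Finset.add_sum_erase _ _ (Finset.mem_univ (1 : Mu K r)), if_pos rfl]
  congr 1
  rw [Finset.sum_congr rfl (g := fun _ => if r ∣ n then 1 else 0) (fun g hg => if_neg (Finset.ne_of_mem_erase hg)), Finset.sum_const,
    Finset.card_erase_of_mem (Finset.mem_univ _), Finset.card_univ, hcard, smul_eq_mul]

/-- The arithmetic of the final count. -/
theorem final_arith {c o r e : ℕ} (hr : 2 ≤ r) (hc : r ≤ c) (he : e = 0 ∨ e = 1) (h : o * r = c + (r - 1) * e) :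
    (o - 1) + (r - 1) * e = (c - r - e) / r + r * e := by
  rcases he with rfl | rfl
  · simp only [mul_zero, add_zero, Nat.sub_zero] at h ⊢
    subst h
    have h0 : 1 ≤ o := by
      rcases Nat.eq_zero_or_pos o with rfl | h1
      · simp at hc
        omega
      · exact h1
    obtain ⟨o', rfl⟩ : ∃ o', o = o' + 1 := ⟨o - 1, by omega⟩
    rw [show (o' + 1) * r - r = o' * r by rw [add_mul, one_mul]; omega, Nat.mul_div_cancel _ (by omega)]
    omega
  · have h2 : 2 ≤ o := by
      by_contra h0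
      have h1 : o ≤ 1 := by omega
      have h3 : o * r ≤ 1 * r := Nat.mul_le_mul_right _ h1
      omega
    obtain ⟨o', rfl⟩ : ∃ o', o = o' + 2 := ⟨o - 2, by omega⟩
    have h3 : c - r - 1 = o' * r := by
      have h4 : (o' + 2) * r = o' * r + 2 * r := by ring
      omega
    rw [h3, Nat.mul_div_cancel _ (by omega)]
    omega

end Cfsg.Agent.Lib.EigCount.Proj
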